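/-
Stabilisers of the coordinate subspaces `⟨e_i | i < k⟩` in `GL_n(F)`.
-/
import Mathlib
import Cfsg.Prelude.Def_ClassicalGeometry

set_option autoImplicit false

namespace Cfsg.Agent.Lib.Parabolic.Basic

open Matrix Cfsg

variable {F : Type*} [Field F] {n : ℕ}

/-- The coordinate subspace. -/
def coordSub (F : Type*) [Field F] (n k : ℕ) : Submodule F (Fin n → F) where
  carrier := {v | ∀ i : Fin n, k ≤ (i : ℕ) → v i = 0}
  add_mem' := by
    intro a b ha hb i hi
    simp [ha i hi, hb i hi]
  zero_mem' := fun _ _ => rfl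
  smul_mem' := by
    intro c x hx i hi
    simp [hx i hi]

theorem mem_coordSub {k : ℕ} {v : Fin n → F} : v ∈ coordSub F n k ↔ ∀ i : Fin n, k ≤ (i : ℕ) → v i = 0 :=
  Iff.rfl

/-- The stabiliser of the coordinate subspace, as in the statements. -/
abbrev stab (F : Type*) [Field F] (n k : ℕ) : Subgroup (Matrix.GeneralLinearGroup (Fin n) F) :=
  Cfsg.stabilizing (Cfsg.glToMat (Fin n) F) {v : Fin n → F | ∀ i : Fin n, k ≤ (i : ℕ) → v i = 0}

theorem coe_mul_inv (g : Matrix.GeneralLinearGroup (Fin n) F) :
    (g : Matrix (Fin n) (Fin n) F) * ((g⁻¹ : Matrix.GeneralLinearGroup (Fin n) F) : Matrix (Fin n) (Fin n) F) = 1 := by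
  rw [← Units.val_mul]; simp

theorem coe_inv_mul (g : Matrix.GeneralLinearGroup (Fin n) F) :
    ((g⁻¹ : Matrix.GeneralLinearGroup (Fin n) F) : Matrix (Fin n) (Fin n) F) * (g : Matrix (Fin n) (Fin n) F) = 1 := by
  rw [← Units.val_mul]; simp

theorem mem_stab_iff {k : ℕ} (g : Matrix.GeneralLinearGroup (Fin n) F) :
    g ∈ stab F n k ↔ ∀ i j : Fin n, k ≤ (i : ℕ) → (j : ℕ) < k → (g : Matrix (Fin n) (Fin n) F) i j = 0 := by
  constructor
  · intro hg i j hi hj
    have h1 : (Pi.single j 1 : Fin n → F) ∈ {v : Fin n → F | ∀ i : Fin n, k ≤ (i : ℕ) → v i = 0} := by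
      intro r hr
      have : r ≠ j := by
        rintro rfl
        omega
      simp [this]
    have h2 := (hg _).mp h1 i hi
    simpa [Matrix.mulVec_single_one] using h2
  · intro h v
    set A : Matrix (Fin n) (Fin n) F := (g : Matrix (Fin n) (Fin n) F) with hA
    have hfwd : ∀ x : Fin n → F, x ∈ coordSub F n k → A *ᵥ x ∈ coordSub F n k := by
      intro x hx r hr
      rw [Matrix.mulVec, dotProduct]
      refine Finset.sum_eq_zero (fun j _ => ?_)
      by_cases hj : (j : ℕ) < k
      · rw [h r j hr hj, zero_mul]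
      · rw [hx j (not_lt.mp hj), mul_zero]
    constructor
    · intro hv
      exact hfwd v hv
    · intro hv
      -- injective endomorphism of the finite dimensional space
      let f : coordSub F n k →ₗ[F] coordSub F n k := (Matrix.mulVecLin A).restrict hfwd
      have hAinj : Function.Injective (fun x : Fin n → F => A *ᵥ x) := by
        intro x y hxy
        have h3 : ((g⁻¹ : Matrix.GeneralLinearGroup (Fin n) F) : Matrix (Fin n) (Fin n) F) *ᵥ (A *ᵥ x) =
            ((g⁻¹ : Matrix.GeneralLinearGroup (Fin n) F) : Matrix (Fin n) (Fin n) F) *ᵥ (A *ᵥ y) := by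
          simp only at hxy
          rw [hxy]
        rw [Matrix.mulVec_mulVec, Matrix.mulVec_mulVec, coe_inv_mul, Matrix.one_mulVec, Matrix.one_mulVec] at h3
        exact h3
      have hfinj : Function.Injective f := by
        intro x y hxy
        apply Subtype.ext
        apply hAinj
        exact congrArg Subtype.val hxy
      have hfsurj := LinearMap.injective_iff_surjective.mp hfinj
      obtain ⟨w, hw⟩ := hfsurj ⟨A *ᵥ v, hv⟩
      have h4 : A *ᵥ (w : Fin n → F) = A *ᵥ v := congrArg Subtype.val hw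
      have h5 : (w : Fin n → F) = v := hAinj h4
      rw [← h5]
      exact w.2

/-- Matrix `1 + z ⊗ e_s^*`: the map `x ↦ x + x_s z`. -/
def colT (s : Fin n) (z : Fin n → F) : Matrix (Fin n) (Fin n) F :=
  1 + Matrix.vecMulVec z (Pi.single s 1)

theorem colT_apply (s : Fin n) (z : Fin n → F) (i j : Fin n) :
    colT s z i j = (1 : Matrix (Fin n) (Fin n) F) i j + z i * (Pi.single s (1 : F) : Fin n → F) j := by
  simp [colT, Matrix.vecMulVec_apply]

theorem colT_mulVec (s : Fin n) (z x : Fin n → F) : colT s z *ᵥ x = x + x s • z := by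
  rw [colT, Matrix.add_mulVec, Matrix.one_mulVec, Matrix.vecMulVec_mulVec]
  ext i
  simp [mul_comm]

theorem colT_mul_colT (s : Fin n) (z w : Fin n → F) (hz : w s = 0) :
    colT s z * colT s w = colT s (z + w) := by
  apply Matrix.mulVec_injective
  funext x
  rw [← Matrix.mulVec_mulVec, colT_mulVec, colT_mulVec, colT_mulVec]
  have h : (x + x s • w) s = x s := by simp [hz]
  rw [h, smul_add]
  abel

theorem colT_zero (s : Fin n) : colT s (0 : Fin n → F) = 1 := by
  simp [colT]

/-- The element of `GL_n` attached to `colT`. -/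
def colTU (s : Fin n) (z : Fin n → F) (hz : z s = 0) : Matrix.GeneralLinearGroup (Fin n) F :=
  ⟨colT s z, colT s (-z), by
    rw [colT_mul_colT s z (-z) (by simp [hz]), add_neg_cancel, colT_zero], by
    rw [colT_mul_colT s (-z) z hz, neg_add_cancel, colT_zero]⟩

theorem colTU_val (s : Fin n) (z : Fin n → F) (hz : z s = 0) :
    ((colTU s z hz : Matrix.GeneralLinearGroup (Fin n) F) : Matrix (Fin n) (Fin n) F) = colT s z := rfl

/-- `colT` with `k ≤ s` lies in the stabiliser. -/
theorem colTU_mem_of_le {k : ℕ} (s : Fin n) (hs : k ≤ (s : ℕ)) (z : Fin n → F) (hz : z s = 0) :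
    colTU s z hz ∈ stab F n k := by
  rw [mem_stab_iff]
  intro i j hi hj
  rw [colTU_val, colT_apply]
  have h1 : i ≠ j := by
    rintro rfl
    omega
  have h2 : s ≠ j := by
    rintro rfl
    omega
  simp [h1, h2]

/-- `colT` with `z` in the coordinate subspace lies in the stabiliser. -/
theorem colTU_mem_of_mem {k : ℕ} (s : Fin n) (z : Fin n → F) (hz : z s = 0) (hzk : z ∈ coordSub F n k) :
    colTU s z hz ∈ stab F n k := by
  rw [mem_stab_iff]
  intro i j hi hj
  rw [colTU_val, colT_apply]
  have h1 : i ≠ j := by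
    rintro rfl
    omega
  simp [h1, hzk i hi]

/-- The key step: a column of `g` which is a multiple of `e_m`. -/
theorem elem_mem_of_column {k : ℕ} (H : Subgroup (Matrix.GeneralLinearGroup (Fin n) F))
    (hH : stab F n k ≤ H) (g : Matrix.GeneralLinearGroup (Fin n) F) (hg : g ∈ H)
    (j0 m : Fin n) (hj0 : (j0 : ℕ) < k) (hm : k ≤ (m : ℕ)) (c' : F) (hc' : c' ≠ 0)
    (hcol : (g : Matrix (Fin n) (Fin n) F) *ᵥ Pi.single j0 1 = c' • Pi.single m 1)
    (i : Fin n) (hi : (i : ℕ) < k) (c : F) :
    colTU i (Pi.single m c) (by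
      have : i ≠ m := by
        rintro rfl
        omega
      simp [this]) ∈ H := by
  have hne : i ≠ m := by
    rintro rfl
    omega
  set E := colTU i (Pi.single m c) (by simp [hne]) with hE
  set G : Matrix (Fin n) (Fin n) F := (g : Matrix (Fin n) (Fin n) F) with hG
  set Gi : Matrix (Fin n) (Fin n) F := ((g⁻¹ : Matrix.GeneralLinearGroup (Fin n) F) : Matrix (Fin n) (Fin n) F) with hGi
  have hGiG : Gi * G = 1 := coe_inv_mul g
  -- G⁻¹ e_m = c'⁻¹ e_j0
  have hinv : Gi *ᵥ (Pi.single m c) = (c * c'⁻¹) • Pi.single j0 1 := by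
    have h1 : Gi *ᵥ (c' • Pi.single m 1) = Pi.single j0 1 := by
      rw [← hcol, Matrix.mulVec_mulVec, hGiG, Matrix.one_mulVec]
    have h2 : (Pi.single m c : Fin n → F) = (c * c'⁻¹) • (c' • Pi.single m 1) := by
      funext r
      simp only [Pi.smul_apply, Pi.single_apply, smul_eq_mul]
      split_ifs
      · field_simp
      · simp
    rw [h2, Matrix.mulVec_smul, h1]
  have hq : g⁻¹ * E * g ∈ stab F n k := by
    rw [mem_stab_iff]
    intro r s hr hs
    have h1 : ((g⁻¹ * E * g : Matrix.GeneralLinearGroup (Fin n) F) : Matrix (Fin n) (Fin n) F) =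
        1 + Matrix.vecMulVec (Gi *ᵥ (Pi.single m c)) (Matrix.vecMul (Pi.single i 1) G) := by
      rw [Units.val_mul, Units.val_mul, hE, colTU_val, colT, Matrix.mul_add, Matrix.add_mul, Matrix.mul_one,
        ← hGi, hGiG, Matrix.mul_vecMulVec, Matrix.vecMulVec_mul]
    rw [h1, hinv]
    have hrs : r ≠ s := by
      rintro rfl
      omega
    have hrj : r ≠ j0 := by
      rintro rfl
      omega
    simp [Matrix.vecMulVec_apply, hrs, hrj]
  have : E = g * (g⁻¹ * E * g) * g⁻¹ := by group
  rw [this]
  exact H.mul_mem (H.mul_mem hg (hH hq)) (H.inv_mem hg)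

/-- From an element outside the stabiliser to a column which is a multiple of `e_m`. -/
theorem exists_column {k : ℕ} (H : Subgroup (Matrix.GeneralLinearGroup (Fin n) F))
    (hH : stab F n k ≤ H) (g : Matrix.GeneralLinearGroup (Fin n) F) (hg : g ∈ H)
    (l j : Fin n) (hl : k ≤ (l : ℕ)) (hj : (j : ℕ) < k)
    (hgl : (g : Matrix (Fin n) (Fin n) F) l j ≠ 0) (m : Fin n) (hm : k ≤ (m : ℕ)) :
    ∃ (g' : Matrix.GeneralLinearGroup (Fin n) F) (c' : F), g' ∈ H ∧ c' ≠ 0 ∧
      (g' : Matrix (Fin n) (Fin n) F) *ᵥ Pi.single j 1 = c' • Pi.single m 1 := by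
  set C : Fin n → F := (g : Matrix (Fin n) (Fin n) F) *ᵥ Pi.single j 1 with hC
  have hCl : C l ≠ 0 := by
    simpa [hC, Matrix.mulVec_single_one] using hgl
  let z : Fin n → F := fun r => if r = l then 0 else - C r / C l
  have hz : z l = 0 := by simp [z]
  let D := colTU l z hz
  have hD : D ∈ H := hH (colTU_mem_of_le l hl z hz)
  have hDC : (D : Matrix (Fin n) (Fin n) F) *ᵥ C = C l • Pi.single l 1 := by
    rw [colTU_val, colT_mulVec]
    funext r
    by_cases hr : r = l
    · subst hr
      simp [z]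
    · simp only [Pi.add_apply, Pi.smul_apply, smul_eq_mul, z, hr, if_false, Pi.single_apply]
      field_simp
      ring
  have h1 : ((D * g : Matrix.GeneralLinearGroup (Fin n) F) : Matrix (Fin n) (Fin n) F) *ᵥ Pi.single j 1 = C l • Pi.single l 1 := by
    rw [Units.val_mul, ← Matrix.mulVec_mulVec, ← hC, hDC]
  by_cases hml : m = l
  · subst hml
    exact ⟨D * g, C m, H.mul_mem hD hg, hCl, h1⟩
  · have h2 : (Pi.single l (1 : F) : Fin n → F) m = 0 := by simp [hml]
    have h3 : (Pi.single m (1 : F) : Fin n → F) l = 0 := by simp [Ne.symm hml]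
    let D1 : Matrix.GeneralLinearGroup (Fin n) F := colTU l (Pi.single m (1 : F)) h3
    let D2 : Matrix.GeneralLinearGroup (Fin n) F := colTU m (Pi.single l (-1 : F)) (by simp [hml])
    have hD1 : D1 ∈ H := hH (colTU_mem_of_le l hl _ h3)
    have hD2 : D2 ∈ H := hH (colTU_mem_of_le m hm _ _)
    refine ⟨D2 * (D1 * (D * g)), C l, H.mul_mem hD2 (H.mul_mem hD1 (H.mul_mem hD hg)), hCl, ?_⟩
    rw [Units.val_mul, Units.val_mul, ← Matrix.mulVec_mulVec, ← Matrix.mulVec_mulVec, h1, Matrix.mulVec_smul,
      Matrix.mulVec_smul]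
    congr 1
    rw [colTU_val, colTU_val, colT_mulVec, colT_mulVec]
    funext r
    by_cases hr : r = l
    · subst hr
      simp [hml, Ne.symm hml]
    · by_cases hr2 : r = m
      · subst hr2
        simp [hr]
      · simp [hr, hr2]

/-- The stabiliser is a maximal subgroup. -/
theorem isCoatom_stab {k : ℕ} (hk0 : 0 < k) (hkn : k < n) : IsCoatom (stab F n k) := by
  classical
  constructor
  · -- not the whole group
    intro htop
    let i0 : Fin n := ⟨0, by omega⟩
    let m0 : Fin n := ⟨k, hkn⟩
    have hne : i0 ≠ m0 := by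
      intro h
      have := congrArg Fin.val h
      simp only [i0, m0] at this
      omega
    have h1 : (Pi.single m0 (1 : F) : Fin n → F) i0 = 0 := by simp [hne]
    have h2 : colTU i0 (Pi.single m0 1) h1 ∈ stab F n k := by
      rw [htop]
      exact Subgroup.mem_top _
    have h3 := (mem_stab_iff _).mp h2 m0 i0 (le_refl _) (by simp only [i0]; omega)
    rw [colTU_val, colT_apply] at h3
    simp [Ne.symm hne] at h3
  · intro H hlt
    obtain ⟨hle, g, hg, hgnot⟩ := SetLike.lt_iff_le_and_exists.mp hlt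
    -- entry outside
    obtain ⟨l, j, hl, hj, hgl⟩ : ∃ l j : Fin n, k ≤ (l : ℕ) ∧ (j : ℕ) < k ∧ (g : Matrix (Fin n) (Fin n) F) l j ≠ 0 := by
      by_contra hcon
      push Not at hcon
      apply hgnot
      rw [mem_stab_iff]
      exact fun i j hi hj => hcon i j hi hj
    -- all lower-left elementary matrices
    have hele : ∀ (m i : Fin n), k ≤ (m : ℕ) → (i : ℕ) < k → ∀ (c : F) (hz : (Pi.single m c : Fin n → F) i = 0),
        colTU i (Pi.single m c) hz ∈ H := by
      intro m i hm hi c hz
      obtain ⟨g', c', hg', hc', hcol⟩ := exists_column H hle g hg l j hl hj hgl m hm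
      exact elem_mem_of_column H hle g' hg' j m hj hm c' hc' hcol i hi c
    have hall : ∀ M : Matrix (Fin n) (Fin n) F, M.det ≠ 0 → ∃ h ∈ H, (h : Matrix (Fin n) (Fin n) F) = M := by
      intro M hM
      refine Matrix.diagonal_transvection_induction_of_det_ne_zero
        (fun M => ∃ h ∈ H, (h : Matrix (Fin n) (Fin n) F) = M) M hM ?_ ?_ ?_
      · intro D hD
        refine ⟨Matrix.GeneralLinearGroup.mkOfDetNeZero (Matrix.diagonal D) hD, hle ?_, rfl⟩
        rw [mem_stab_iff]
        intro r s hr hs
        have hrs : r ≠ s := by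
          rintro rfl
          omega
        show Matrix.diagonal D r s = 0
        simp [hrs]
      · intro t
        have hz : (Pi.single t.i t.c : Fin n → F) t.j = 0 := by simp [t.hij.symm]
        refine ⟨colTU t.j (Pi.single t.i t.c) hz, ?_, ?_⟩
        · by_cases hj' : k ≤ (t.j : ℕ)
          · exact hle (colTU_mem_of_le _ hj' _ _)
          · by_cases hi' : k ≤ (t.i : ℕ)
            · exact hele _ _ hi' (not_le.mp hj') _ _
            · apply hle
              apply colTU_mem_of_mem
              intro r hr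
              have : r ≠ t.i := by
                rintro rfl
                omega
              simp [this]
        · rw [colTU_val]
          ext r s
          rw [colT_apply]
          simp only [Matrix.TransvectionStruct.toMatrix, Matrix.transvection, Matrix.add_apply, Matrix.single_apply,
            Pi.single_apply]
          by_cases h1 : r = t.i <;> by_cases h2 : s = t.j <;> simp [h1, h2, eq_comm]
      · rintro A B _ _ ⟨a, ha, rfl⟩ ⟨b, hb, rfl⟩
        exact ⟨a * b, H.mul_mem ha hb, rfl⟩
    rw [eq_top_iff]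
    intro x _
    obtain ⟨h, hh, hhx⟩ := hall (x : Matrix (Fin n) (Fin n) F) (by
      have : IsUnit (x : Matrix (Fin n) (Fin n) F).det := (Matrix.isUnit_iff_isUnit_det _).mp x.isUnit
      exact this.ne_zero)
    have : h = x := Units.ext hhx
    rwa [← this]

end Cfsg.Agent.Lib.Parabolic.Basic
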